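import Mathlib
import Cfsg.Agent.Lib.Helper51.EA38.Defs
import Cfsg.Agent.Lib.Helper23.PGroupEA

/-!
# S1338, package (Q6) `LemClaim1` (helper33)

In the configuration `W₁ < W₂ < W` (`|W| = 27`), every elementary abelian subgroup `E` of order
at least `81` has order exactly `81`, meets `W` in `W₂` and centralizes `W₂`.
-/

set_option autoImplicit false

namespace Cfsg.Agent.Lib.Helper33.EA38

open Cfsg.Agent.Lib.Helper51.EA38 Cfsg.Agent.Lib.Helper23

universe u

theorem mem_cent_single {P : Type u} [Group P] {g w : P} :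
    w ∈ Subgroup.centralizer ({g} : Set P) ↔ g * w = w * g := by
  rw [Subgroup.mem_centralizer_iff]
  constructor
  · intro h; exact h g rfl
  · intro h x hx
    rw [Set.mem_singleton_iff] at hx
    subst hx
    exact h

/-- A subgroup strictly between... : if `A ≤ K ≤ B`, `|B| = p |A|` and `K ≠ A` then `K = B`. -/
theorem eq_of_mid_prime_index {P : Type u} [Group P] [Finite P] {p : ℕ} (hp : p.Prime)
    {A K B : Subgroup P} (hAK : A ≤ K) (hKB : K ≤ B) (hcard : Nat.card B = p * Nat.card A)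
    (hne : K ≠ A) : K = B := by
  have h1 : Nat.card A ∣ Nat.card K := Subgroup.card_dvd_of_le hAK
  have h2 : Nat.card K ∣ Nat.card B := Subgroup.card_dvd_of_le hKB
  obtain ⟨m, hm⟩ := h1
  have hApos : 0 < Nat.card A := Nat.card_pos
  rw [hcard, hm, mul_comm p] at h2
  have h3 : m ∣ p := Nat.dvd_of_mul_dvd_mul_left hApos h2
  rcases (Nat.dvd_prime hp).mp h3 with rfl | rfl
  · exfalso; apply hne
    exact (Subgroup.eq_of_le_of_card_ge hAK (by rw [hm]; simp)).symm
  · exact Subgroup.eq_of_le_of_card_ge hKB (by rw [hcard, hm, mul_comm])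

/-- A proper subgroup of a subgroup of order `p ^ (n + 1)` has order at most `p ^ n`. -/
theorem card_le_of_ne_pow {P : Type u} [Group P] [Finite P] {p : ℕ} (hp : p.Prime)
    {A B : Subgroup P} (hAB : A ≤ B) (hne : A ≠ B) {n : ℕ} (hcard : Nat.card B = p ^ (n + 1)) :
    Nat.card A ≤ p ^ n := by
  have h1 : Nat.card A ∣ Nat.card B := Subgroup.card_dvd_of_le hAB
  rw [hcard] at h1
  obtain ⟨m, hm, hAm⟩ := (Nat.dvd_prime_pow hp).mp h1
  rcases Nat.lt_or_ge m (n + 1) with h | h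
  · rw [hAm]; exact Nat.pow_le_pow_right hp.pos (Nat.lt_succ_iff.mp h)
  · exfalso; apply hne
    have hmn : m = n + 1 := le_antisymm hm h
    exact Subgroup.eq_of_le_of_card_ge hAB (by rw [hcard, hAm, hmn])

/-- The commutator `w e w⁻¹ e⁻¹` commutes with `e'` under the commutation hypotheses. -/
theorem comm_commutator_aux {P : Type u} [Group P] (w e e' : P) (hee' : e' * e = e * e')
    (heu : e * (e' * w * e'⁻¹ * w⁻¹) = (e' * w * e'⁻¹ * w⁻¹) * e)
    (huc : (e' * w * e'⁻¹ * w⁻¹) * (w * e * w⁻¹ * e⁻¹) =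
      (w * e * w⁻¹ * e⁻¹) * (e' * w * e'⁻¹ * w⁻¹)) :
    e' * (w * e * w⁻¹ * e⁻¹) = (w * e * w⁻¹ * e⁻¹) * e' := by
  have h1 : e' * e * e'⁻¹ = e := by rw [hee', mul_inv_cancel_right]
  have h2 : (e' * w * e'⁻¹ * w⁻¹)⁻¹ * e⁻¹ = e⁻¹ * (e' * w * e'⁻¹ * w⁻¹)⁻¹ := by
    rw [← mul_inv_rev, ← mul_inv_rev, heu]
  have h3 : e' * (w * e * w⁻¹ * e⁻¹) * e'⁻¹ =
      (e' * w * e'⁻¹ * w⁻¹) * (w * e * w⁻¹ * e⁻¹) * (e' * w * e'⁻¹ * w⁻¹)⁻¹ := by
    calc e' * (w * e * w⁻¹ * e⁻¹) * e'⁻¹
        = (e' * w * e'⁻¹) * (e' * e * e'⁻¹) * (e' * w * e'⁻¹)⁻¹ * (e' * e * e'⁻¹)⁻¹ := by group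
      _ = (e' * w * e'⁻¹) * e * (e' * w * e'⁻¹)⁻¹ * e⁻¹ := by rw [h1]
      _ = (e' * w * e'⁻¹ * w⁻¹) * w * e * w⁻¹ * ((e' * w * e'⁻¹ * w⁻¹)⁻¹ * e⁻¹) := by group
      _ = (e' * w * e'⁻¹ * w⁻¹) * w * e * w⁻¹ * (e⁻¹ * (e' * w * e'⁻¹ * w⁻¹)⁻¹) := by rw [h2]
      _ = (e' * w * e'⁻¹ * w⁻¹) * (w * e * w⁻¹ * e⁻¹) * (e' * w * e'⁻¹ * w⁻¹)⁻¹ := by group
  calc e' * (w * e * w⁻¹ * e⁻¹) = e' * (w * e * w⁻¹ * e⁻¹) * e'⁻¹ * e' := by group
    _ = (e' * w * e'⁻¹ * w⁻¹) * (w * e * w⁻¹ * e⁻¹) * (e' * w * e'⁻¹ * w⁻¹)⁻¹ * e' := by rw [h3]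
    _ = (w * e * w⁻¹ * e⁻¹) * (e' * w * e'⁻¹ * w⁻¹) * (e' * w * e'⁻¹ * w⁻¹)⁻¹ * e' := by rw [huc]
    _ = (w * e * w⁻¹ * e⁻¹) * e' := by group

/-- (Q6) for S1338. -/
theorem lemClaim1 (hS : LemStep.{u}) : LemClaim1.{u} := by
  intro P _ _ hP W W₂ W₁ hC
  have h3 : Nat.Prime 3 := by norm_num
  have hWcomm : ∀ a ∈ W, ∀ b ∈ W, a * b = b * a := fun a ha b hb => isEA_comm hC.ea ha hb
  have hex3 : ∃ w3 ∈ W, w3 ∉ W₂ := by
    by_contra hcon
    push Not at hcon
    have hWW : W = W₂ := le_antisymm hcon hC.le₂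
    have h := hC.card
    rw [hWW, hC.card₂] at h
    omega
  have hex2 : ∃ w2 ∈ W₂, w2 ∉ W₁ := by
    by_contra hcon
    push Not at hcon
    have hWW : W₂ = W₁ := le_antisymm hcon hC.le₁
    have h := hC.card₂
    rw [hWW, hC.card₁] at h
    omega
  obtain ⟨w3, hw3W, hw3⟩ := hex3
  obtain ⟨w2, hw2W, hw2⟩ := hex2
  -- Fact C: centralizing `W₂` and `w3` implies centralizing `W`
  have factC : ∀ g : P, (∀ w ∈ W₂, g * w = w * g) → g * w3 = w3 * g →
      ∀ w ∈ W, g * w = w * g := by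
    intro g hg2 hg3
    have hK : W ⊓ Subgroup.centralizer {g} = W := by
      apply eq_of_mid_prime_index h3 (A := W₂)
      · exact le_inf hC.le₂ (fun w hw => mem_cent_single.mpr (hg2 w hw))
      · exact inf_le_left
      · rw [hC.card, hC.card₂]
      · intro hcon
        apply hw3
        rw [← hcon]
        exact Subgroup.mem_inf.mpr ⟨hw3W, mem_cent_single.mpr hg3⟩
    intro w hw
    rw [← hK] at hw
    exact mem_cent_single.mp (Subgroup.mem_inf.mp hw).2
  -- Fact D: centralizing `w2` implies centralizing `W₂`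
  have factD : ∀ g : P, g * w2 = w2 * g → ∀ w ∈ W₂, g * w = w * g := by
    intro g hg2
    have hK : W₂ ⊓ Subgroup.centralizer {g} = W₂ := by
      apply eq_of_mid_prime_index h3 (A := W₁)
      · exact le_inf hC.le₁ (fun w hw => mem_cent_single.mpr (hC.central₁ w hw g))
      · exact inf_le_left
      · rw [hC.card₂, hC.card₁]
      · intro hcon
        apply hw2
        rw [← hcon]
        exact Subgroup.mem_inf.mpr ⟨hw2W, mem_cent_single.mpr hg2⟩
    intro w hw
    rw [← hK] at hw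
    exact mem_cent_single.mp (Subgroup.mem_inf.mp hw).2
  have hc2 : ∀ a : P, w3 * a * w3⁻¹ * a⁻¹ ∈ W₂ := by
    intro a
    have h1 := W₂.inv_mem (hC.comm₂ w3 hw3W a)
    have h2 : (a * w3 * a⁻¹ * w3⁻¹)⁻¹ = w3 * a * w3⁻¹ * a⁻¹ := by group
    rwa [h2] at h1
  have hc1 : ∀ a : P, w2 * a * w2⁻¹ * a⁻¹ ∈ W₁ := by
    intro a
    have h1 := W₁.inv_mem (hC.comm₁ w2 hw2W a)
    have h2 : (a * w2 * a⁻¹ * w2⁻¹)⁻¹ = w2 * a * w2⁻¹ * a⁻¹ := by group
    rwa [h2] at h1
  -- the key statement for all elementary abelian subgroups of order at least 81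
  have key : ∀ E : Subgroup P, Cfsg.IsElementaryAbelian 3 E → 81 ≤ Nat.card E →
      (∀ e ∈ E, ∀ w ∈ W₂, e * w = w * e) ∧ Nat.card E = 81 ∧ Nat.card ↥(E ⊓ W) = 9 := by
    intro E hE hE81
    have hEcomm : ∀ a ∈ E, ∀ b ∈ E, a * b = b * a := fun a ha b hb => isEA_comm hE ha hb
    have factA : ∀ e ∈ E, (∀ w ∈ W, e * w = w * e) → e ∈ W :=
      fun e he h => hC.omega e h (hE.2 e he)
    have hHW : E ⊓ W ≠ W := by
      intro hcon
      have hWE : W ≤ E := by rw [← hcon]; exact inf_le_left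
      have hEW : E ≤ W := fun e he => factA e he (fun w hw => hEcomm e he w (hWE hw))
      have hle := Subgroup.card_le_of_le hEW
      rw [hC.card] at hle
      omega
    have hH9 : Nat.card ↥(E ⊓ W) ≤ 9 := by
      have h := card_le_of_ne_pow h3 (inf_le_right : E ⊓ W ≤ W) hHW (n := 2)
        (by rw [hC.card]; norm_num)
      simpa using h
    have hcentH : ∀ A : Subgroup P, A ≤ E → (∀ a ∈ A, ∀ w ∈ W₂, a * w = w * a) →
        Nat.card ↥(A ⊓ Subgroup.centralizer {w3}) ≤ Nat.card ↥(E ⊓ W) := by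
      intro A hAE hA
      apply Subgroup.card_le_of_le
      intro a ha
      obtain ⟨haA, hac⟩ := Subgroup.mem_inf.mp ha
      have hwa : w3 * a = a * w3 := mem_cent_single.mp hac
      exact Subgroup.mem_inf.mpr
        ⟨hAE haA, factA a (hAE haA) (factC a (hA a haA) hwa.symm)⟩
    have caseI : (∀ e ∈ E, ∀ w ∈ W₂, e * w = w * e) →
        Nat.card E = 81 ∧ Nat.card ↥(E ⊓ W) = 9 := by
      intro hcent
      have h1 := hS E W₂ w3 (fun a _ => hc2 a) hcent
      have h2 := hcentH E le_rfl hcent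
      rw [hC.card₂] at h1
      constructor <;> omega
    by_cases hcent : ∀ e ∈ E, ∀ w ∈ W₂, e * w = w * e
    · exact ⟨hcent, caseI hcent⟩
    · exfalso
      have hE2E : E ⊓ Subgroup.centralizer (W₂ : Set P) ≤ E := inf_le_left
      have hE2c : ∀ a ∈ E ⊓ Subgroup.centralizer (W₂ : Set P), ∀ w ∈ W₂, a * w = w * a := by
        intro a ha w hw
        have h := (Subgroup.mem_inf.mp ha).2
        rw [Subgroup.mem_centralizer_iff] at h
        exact (h w hw).symm
      have hstep1 : Nat.card E ≤ 3 * Nat.card ↥(E ⊓ Subgroup.centralizer (W₂ : Set P)) := by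
        have h1 := hS E W₁ w2 (fun a _ => hc1 a) (fun a _ z hz => hC.central₁ z hz a)
        rw [hC.card₁] at h1
        have h2 : Nat.card ↥(E ⊓ Subgroup.centralizer {w2}) ≤
            Nat.card ↥(E ⊓ Subgroup.centralizer (W₂ : Set P)) := by
          apply Subgroup.card_le_of_le
          intro a ha
          obtain ⟨haE, hac⟩ := Subgroup.mem_inf.mp ha
          refine Subgroup.mem_inf.mpr ⟨haE, ?_⟩
          rw [Subgroup.mem_centralizer_iff]
          intro w hw
          exact (factD a (mem_cent_single.mp hac).symm w hw).symm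
        calc Nat.card E ≤ 3 * Nat.card ↥(E ⊓ Subgroup.centralizer {w2}) := h1
          _ ≤ 3 * Nat.card ↥(E ⊓ Subgroup.centralizer (W₂ : Set P)) :=
            Nat.mul_le_mul_left 3 h2
      have hZne : W₂ ⊓ Subgroup.centralizer (E : Set P) ≠ W₂ := by
        intro hcon
        apply hcent
        intro e he w hw
        rw [← hcon] at hw
        have h := (Subgroup.mem_inf.mp hw).2
        rw [Subgroup.mem_centralizer_iff] at h
        exact h e he
      have hZ3 : Nat.card ↥(W₂ ⊓ Subgroup.centralizer (E : Set P)) ≤ 3 := by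
        have h := card_le_of_ne_pow h3
          (inf_le_left : W₂ ⊓ Subgroup.centralizer (E : Set P) ≤ W₂) hZne (n := 1)
          (by rw [hC.card₂]; norm_num)
        simpa using h
      have hstep2 : Nat.card ↥(E ⊓ Subgroup.centralizer (W₂ : Set P)) ≤
          3 * Nat.card ↥(E ⊓ W) := by
        have h1 := hS (E ⊓ Subgroup.centralizer (W₂ : Set P))
          (W₂ ⊓ Subgroup.centralizer (E : Set P)) w3 ?_ ?_
        · have h2 := hcentH _ hE2E hE2c
          calc Nat.card ↥(E ⊓ Subgroup.centralizer (W₂ : Set P))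
              ≤ Nat.card ↥(W₂ ⊓ Subgroup.centralizer (E : Set P)) *
                Nat.card ↥((E ⊓ Subgroup.centralizer (W₂ : Set P)) ⊓
                  Subgroup.centralizer {w3}) := h1
            _ ≤ 3 * Nat.card ↥(E ⊓ W) := Nat.mul_le_mul hZ3 h2
        · intro e he
          refine Subgroup.mem_inf.mpr ⟨hc2 e, ?_⟩
          rw [Subgroup.mem_centralizer_iff]
          intro e' he'
          have hu : e' * w3 * e'⁻¹ * w3⁻¹ ∈ W₂ := hC.comm₂ w3 hw3W e'
          exact comm_commutator_aux w3 e e' (hEcomm e' he' e (hE2E he))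
            (hE2c e he _ hu) (hWcomm _ (hC.le₂ hu) _ (hC.le₂ (hc2 e)))
        · intro a ha z hz
          exact hE2c a ha z (Subgroup.mem_inf.mp hz).1
      have hH9' : Nat.card ↥(E ⊓ W) = 9 := by omega
      have hHne : E ⊓ W ≠ W₂ := by
        intro hcon
        apply hcent
        intro e he w hw
        rw [← hcon] at hw
        exact hEcomm e he w (Subgroup.mem_inf.mp hw).1
      have hsup : (E ⊓ W) ⊔ W₂ = W := by
        apply eq_of_mid_prime_index h3 (A := W₂)
        · exact le_sup_right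
        · exact sup_le inf_le_right hC.le₂
        · rw [hC.card, hC.card₂]
        · intro hcon
          apply hHne
          have hle : E ⊓ W ≤ W₂ := by rw [← hcon]; exact le_sup_left
          exact Subgroup.eq_of_le_of_card_ge hle (by rw [hH9', hC.card₂])
      have hE2W : E ⊓ Subgroup.centralizer (W₂ : Set P) ≤ E ⊓ W := by
        intro a ha
        refine Subgroup.mem_inf.mpr ⟨hE2E ha, factA a (hE2E ha) ?_⟩
        have hle : (E ⊓ W) ⊔ W₂ ≤ Subgroup.centralizer {a} := by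
          apply sup_le
          · intro w hw
            exact mem_cent_single.mpr (hEcomm a (hE2E ha) w (Subgroup.mem_inf.mp hw).1)
          · intro w hw
            exact mem_cent_single.mpr (hE2c a ha w hw)
        intro w hw
        rw [← hsup] at hw
        exact mem_cent_single.mp (hle hw)
      have hle2 := Subgroup.card_le_of_le hE2W
      omega
  intro E hE hE81
  obtain ⟨hcent, hcard, hH9⟩ := key E hE hE81
  refine ⟨hcard, ?_, hcent⟩
  have hW2ea : Cfsg.IsElementaryAbelian 3 W₂ := isEA_of_le hC.ea hC.le₂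
  have hF := isEA_sup hE hW2ea hcent
  have hF81 : 81 ≤ Nat.card ↥(E ⊔ W₂) := le_trans hE81 (Subgroup.card_le_of_le le_sup_left)
  obtain ⟨-, hFcard, -⟩ := key (E ⊔ W₂) hF hF81
  have hEF : E = E ⊔ W₂ := Subgroup.eq_of_le_of_card_ge le_sup_left (by rw [hFcard, hcard])
  have hW2E : W₂ ≤ E := by rw [hEF]; exact le_sup_right
  have hle : W₂ ≤ E ⊓ W := le_inf hW2E hC.le₂
  exact (Subgroup.eq_of_le_of_card_ge hle (by rw [hH9, hC.card₂])).symm

end Cfsg.Agent.Lib.Helper33.EA38
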